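import Cfsg.Agent.H458.CC.Main2Part
import Cfsg.Agent.H688.CC.Wsum
import Cfsg.Agent.H910.CC.Rank1

/-!
# MAIN2 of S4793: the Weil characters of the unitary group
-/

set_option autoImplicit false

open Cfsg
open scoped ComplexConjugate

namespace Cfsg.Agent.H458.CC

open Module Cfsg.Agent.H603.CC

universe u v

variable {F : Type u} {V : Type v} [Field F] [AddCommGroup V] [Module F V] {q : ℕ} {σ : F →+* F}
  {B : V →ₛₗ[σ] V →ₗ[F] F} [Finite F] [Finite V]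

theorem inp (h : HS q σ B) (hodd : Odd (finrank F V)) (hn : 3 ≤ finrank F V) : Main2Core.Inp q B :=
  Main2Part.inp_of h hn (fun hs h0 Θ => Cfsg.Agent.H688.CC.wsum h hs h0 Θ)
    (Cfsg.Agent.H688.CC.sum_sq h (by omega)) (fun hκ => Cfsg.Agent.H688.CC.sum_sq_dl h hn hκ)
    (fun hcl hs h1 ht _ hE _ hg => Cfsg.Agent.H910.CC.zero_on h hodd hcl hs h1 ht hE hg)
    (fun hχ hn _ ht hne _ hκ => Cfsg.Agent.H910.CC.not_noRef_mul h hodd hχ hn ht hne hκ)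

theorem exists_unique_weil (h : HS q σ B) (hodd : Odd (finrank F V)) (hn : 3 ≤ finrank F V)
    (_h32 : ¬ (finrank F V = 3 ∧ q = 2)) (ε : Zs B →* ℂˣ) :
    ∃ χ : IrrCharacter (UU B), NoRef (χ : UU B → ℂ) ∧ (∀ t : UU B, IsTv t → (χ : UU B → ℂ) t ≠ (χ : UU B → ℂ) 1) ∧
      (∀ (z : Zs B) (g : UU B), (χ : UU B → ℂ) (z * g) = (ε z : ℂˣ) * (χ : UU B → ℂ) g) ∧
      (∀ g : UU B, (χ : UU B → ℂ) g = ((q : ℂ) + 1)⁻¹ * ∑ᶠ z : Zs B, ((ε z)⁻¹ : ℂˣ) * (- wf q ((z : UU B) * g))) ∧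
      ∀ ψ : IrrCharacter (UU B), NoRef (ψ : UU B → ℂ) →
        (∀ t : UU B, IsTv t → (ψ : UU B → ℂ) t ≠ (ψ : UU B → ℂ) 1) →
        (∀ (z : Zs B) (g : UU B), (ψ : UU B → ℂ) (z * g) = (ε z : ℂˣ) * (ψ : UU B → ℂ) g) → ψ = χ :=
  Main2Core.exists_unique_weil h hodd hn (inp h hodd hn) ε

/-- (also from the proof of MAIN2) every Weil character is a constituent of `- wf q`, the other constituents being characters:
a subgroup on which `wf q` sums to zero has no fixed vectors -/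
theorem weil_sum_zero (h : HS q σ B) (hodd : Odd (finrank F V)) (hn : 3 ≤ finrank F V)
    (_h32 : ¬ (finrank F V = 3 ∧ q = 2)) {χ : UU B → ℂ} (hχ : IsIrrCharacter (UU B) χ) (hr : NoRef χ)
    (ht : ∀ t : UU B, IsTv t → χ t ≠ χ 1) (Y : Subgroup (UU B)) (hY : ∑ᶠ y : Y, wf q (y : UU B) = 0) :
    ∑ᶠ y : Y, χ (y : UU B) = 0 :=
  Main2Core.weil_sum_zero h hodd hn (inp h hodd hn) hχ hr ht Y hY

end Cfsg.Agent.H458.CC
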