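import Cfsg.Agent.H458.CC.Main2Core
import Cfsg.Agent.H603.CC.Basic
import Cfsg.Agent.H212.CC.Star
import Cfsg.Agent.H486.CC.Integ

/-!
# MAIN2 of S4793: the inputs which are already available
-/

set_option autoImplicit false

open Cfsg
open scoped ComplexConjugate

namespace Cfsg.Agent.H458.CC.Main2Part

open Module Cfsg.Agent.H603.CC Cfsg.Agent.H458.CC.Main2Core

universe u v

variable {F : Type u} {V : Type v} [Field F] [AddCommGroup V] [Module F V] {q : ℕ} {σ : F →+* F}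
  {B : V →ₛₗ[σ] V →ₗ[F] F} [Finite F] [Finite V]

theorem exists_ref (h : HS q σ B) {f : V} (hf : B f f = 1) {c : F} (hc : c ^ (q + 1) = 1) :
    ∃ ρ ∈ Ref B f, ((dt ρ : Fˣ) : F) = c := by
  obtain ⟨ρ, hρ, h1⟩ := exists_rf h hf hc
  obtain ⟨c', -, h2, h3⟩ := of_mem_Ref h hf hρ
  refine ⟨ρ, hρ, ?_⟩
  have hf0 : f ≠ 0 := by
    rintro rfl
    rw [map_zero] at hf
    exact zero_ne_one hf
  have h4 := (h1 f).symm.trans (h2 f)
  rw [hf, mul_one, mul_one, add_right_inj] at h4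
  have h5 := smul_left_injective F hf0 h4
  rw [h3]
  exact (sub_left_inj.mp h5).symm

theorem inp_of (h : HS q σ B) (hn : 3 ≤ finrank F V)
    (wsum : ∀ {Δ : UU B → ℂ}, Star Δ → (∀ E, IsTS B E → ∀ g ∈ FixS B (perp B E), Δ g = 0) →
      ∀ Θ : Submodule F V → ℂ, ∑ᶠ g : UU B, Δ g * Θ (fx g) = 0)
    (sum_sq : ∑ᶠ g : UU B, (wf q g) ^ 2 = (q + 1) * Nat.card (UU B))
    (sum_sq_dl : ∀ {κ : Fˣ →* ℂˣ}, KNT q κ → ∑ᶠ g : UU B, (wf q g) ^ 2 * dl κ g = 0)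
    (zero_on : ∀ {Δ : UU B → ℂ}, IsClassFunction (UU B) Δ → Star Δ → Δ 1 = 0 → (∀ t, IsTv t → Δ t = 0) →
      ∀ {E : Submodule F V}, IsTS B E → ∀ {g : UU B}, g ∈ FixS B (perp B E) → Δ g = 0)
    (not_noRef_mul : ∀ {χ : UU B → ℂ}, IsIrrCharacter (UU B) χ → NoRef χ → ∀ {t : UU B}, IsTv t → χ t ≠ χ 1 →
      ∀ {κ : Fˣ →* ℂˣ}, KNT q κ → ¬ NoRef (fun g : UU B => χ g * dl κ g)) : Inp q B where
  ref := fun hf _ hc => exists_ref h hf hc
  tv := fun he0 he _ ht => by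
    obtain ⟨k, -, h2, h3⟩ := of_mem_Ref_tv h he0 he ht
    exact ⟨k, h2, h3⟩
  finrank_perp := finrank_perp h
  isConj_tv := fun hs ht => isConj_tv h hs ht
  exists_isTv := exists_isTv h (by omega)
  star_wf := Cfsg.Agent.H212.CC.star_wf h
  wf_class := Cfsg.Agent.H212.CC.wf_class
  star_of_noRef := fun hχ hn => Cfsg.Agent.H212.CC.star_of_noRef hχ hn
  inner_eq_zero := fun h1 h2 h3 h4 => Cfsg.Agent.H212.CC.inner_eq_zero h1 h2 h3 h4
  wsum := wsum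
  sum_sq := sum_sq
  sum_sq_dl := sum_sq_dl
  zero_on := zero_on
  not_noRef_mul := not_noRef_mul
  integrality := fun hχ _ ht => Cfsg.Agent.H486.CCInteg.integrality h hn hχ ht

end Cfsg.Agent.H458.CC.Main2Part
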